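import Cfsg.Prelude.Def_ClassicalGeometry

set_option autoImplicit false

/-!
Forms library: stabilisers in `GL_n` of coordinate subspaces.
-/

open scoped Matrix

namespace CfsgLib.Forms

variable {F : Type*} [Field F] {n : ℕ}

/-- The stabiliser of the span of the first `k` coordinate vectors. -/
abbrev coordStab (n : ℕ) (F : Type*) [Field F] (k : ℕ) :
    Subgroup (Matrix.GeneralLinearGroup (Fin n) F) :=
  Cfsg.stabilizing (Cfsg.glToMat (Fin n) F) {v : Fin n → F | ∀ i : Fin n, k ≤ (i : ℕ) → v i = 0}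

theorem mulVec_coord_vanish (M : Matrix (Fin n) (Fin n) F) {k : ℕ}
    (hM : ∀ i j : Fin n, k ≤ (i : ℕ) → (j : ℕ) < k → M i j = 0) (v : Fin n → F)
    (hv : ∀ i : Fin n, k ≤ (i : ℕ) → v i = 0) (i : Fin n) (hi : k ≤ (i : ℕ)) : (M *ᵥ v) i = 0 := by
  show ∑ j, M i j * v j = 0
  refine Finset.sum_eq_zero fun j _ => ?_
  by_cases hj : (j : ℕ) < k
  · simp [hM i j hi hj]
  · simp [hv j (not_lt.mp hj)]

/-- Membership in the stabiliser of a coordinate subspace is a vanishing condition on entries. -/
theorem mem_coordStab_iff {k : ℕ} {g : Matrix.GeneralLinearGroup (Fin n) F} :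
    g ∈ coordStab n F k ↔
      ∀ i j : Fin n, k ≤ (i : ℕ) → (j : ℕ) < k → (g : Matrix (Fin n) (Fin n) F) i j = 0 := by
  constructor
  · intro h i j hi hj
    have hv : (Pi.single j (1 : F) : Fin n → F) ∈ {v : Fin n → F | ∀ i : Fin n, k ≤ (i : ℕ) → v i = 0} :=
      fun l hl => Pi.single_eq_of_ne (fun h => by subst h; omega) _
    have := (h _).mp hv i hi
    simpa [Matrix.mulVec_single_one] using this
  · intro h
    classical
    set S : Submodule F (Fin n → F) :=
      { carrier := {v : Fin n → F | ∀ i : Fin n, k ≤ (i : ℕ) → v i = 0}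
        add_mem' := fun {a b} ha hb i hi => by simp [ha i hi, hb i hi]
        zero_mem' := fun i _ => rfl
        smul_mem' := fun c a ha i hi => by simp [ha i hi] }
    let f : (Fin n → F) →ₗ[F] (Fin n → F) := Matrix.toLin' (g : Matrix (Fin n) (Fin n) F)
    have hinj : Function.Injective f := fun u v huv => by
      have := congrArg ((↑g⁻¹ : Matrix (Fin n) (Fin n) F) *ᵥ ·) huv
      simpa [f, Matrix.mulVec_mulVec] using this
    have hle : S.map f ≤ S := by
      rintro _ ⟨v, hv, rfl⟩ i hi
      exact mulVec_coord_vanish _ h v hv i hi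
    have heq : S.map f = S := Submodule.eq_of_le_of_finrank_eq hle
      (Submodule.equivMapOfInjective f hinj S).finrank_eq.symm
    intro v
    refine ⟨fun hv i hi => mulVec_coord_vanish _ h v hv i hi, fun hv => ?_⟩
    obtain ⟨w, hw, hwv⟩ : f v ∈ S.map f := heq.symm ▸ hv
    exact (hinj hwv) ▸ hw

theorem transvection_mem_coordStab {k : ℕ} {a b : Fin n}
    (h : (a : ℕ) < k ∨ k ≤ (b : ℕ)) (c : F) (g : Matrix.GeneralLinearGroup (Fin n) F)
    (hg : (g : Matrix (Fin n) (Fin n) F) = Matrix.transvection a b c) : g ∈ coordStab n F k := by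
  rw [mem_coordStab_iff]
  intro i j hi hj
  have hij : i ≠ j := fun he => by subst he; omega
  have hne : ¬(a = i ∧ b = j) := by
    rintro ⟨rfl, rfl⟩
    omega
  simp [hg, Matrix.transvection, Matrix.one_apply_ne hij, Matrix.single, hne]

end CfsgLib.Forms
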